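import Cfsg.Agent.H34.TI.Col11
import Cfsg.Agent.SmallSimple.TheoremC
import Cfsg.Agent.SmallSimple.TheoremCCor

/-!
# The columns of 5 in a group like `J₄` (helper34)
-/

set_option autoImplicit false
set_option linter.unusedSectionVars false

open Cfsg Subgroup
open scoped ComplexConjugate

namespace Cfsg.Agent.H34.TI

open Cfsg.Agent.Characters Cfsg.Agent.Characters.Core
open Cfsg.Agent.SmallSimple Cfsg.Agent.SmallSimple.ThetaSetup Cfsg.Agent.SmallSimple.ThetaOrtho
  Cfsg.Agent.SmallSimple.TheoremC Cfsg.Agent.SmallSimple.TheoremCCor Cfsg.Agent.SmallSimple.ThetaCount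

universe u

variable {G : Type u} [Group G] [Finite G] {p : ℕ} [hp : Fact p.Prime] {P : Sylow p G} {K : Subgroup G}

/-- **The column of `θ`.** -/
theorem gen_col (hK : IsComp p (P : Subgroup G) K) (hP : Nat.card P = p) {θ : K → ℂ}
    (hθ : IsIrrCharacter K θ) {e t : ℕ} (he : Nat.card (stabAct hK θ) = e) (het : e * t = p - 1)
    [Fintype P] [DecidableEq P] (R : Finset P) (hRc : R.card = t) (hR1 : 1 ∉ R)
    (hR : ∀ χ : IrrCharacter G, ∑ x ∈ (Finset.univ : Finset P).erase 1, part θ (χ : G → ℂ) x =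
      (e : ℂ) * ∑ x ∈ R, part θ (χ : G → ℂ) x) :
    ∃ (NE X : Finset (IrrCharacter G)) (s : IrrCharacter G → ℤ), Disjoint NE X ∧ NE.card = e ∧ X.card = t ∧
      (∀ χ : IrrCharacter G, χ ∈ Over P θ ↔ χ ∈ NE ∨ χ ∈ X) ∧
      (∀ χ : IrrCharacter G, (s χ : ℂ) = ∑ x ∈ R, part θ (χ : G → ℂ) x) ∧
      (∀ χ, χ ∉ Over P θ → s χ = 0) ∧ (∀ χ ∈ NE, s χ = t ∨ s χ = -t) ∧ (∀ χ ∈ X, s χ = 1 ∨ s χ = -1) := by
  classical
  obtain ⟨NE, X, ε, d, S, hB, hdis, hNE, hX, hε, hd, hval, hvalX, -, -, -⟩ := theoremC hK hP hθ he het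
  have he0 : (e : ℂ) ≠ 0 := by
    have := hp.out.two_le
    have h1 : e ≠ 0 := by rintro rfl; rw [zero_mul] at het; omega
    exact_mod_cast h1
  let s : IrrCharacter G → ℤ := fun χ => if χ ∈ NE then t * ε χ else if χ ∈ X then -d else 0
  refine ⟨NE, X, s, hdis, hNE, hX, hB, ?_, ?_, ?_, ?_⟩
  · intro χ
    by_cases h1 : χ ∈ NE
    · have : s χ = t * ε χ := if_pos h1
      have h5 : ∀ x ∈ R, part θ (χ : G → ℂ) x = ε χ := fun x hx => hval χ h1 x fun e => hR1 (e ▸ hx)
      rw [this, Finset.sum_congr rfl h5, Finset.sum_const, hRc, nsmul_eq_mul]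
      push_cast
      rfl
    · by_cases h2 : χ ∈ X
      · have : s χ = -d := by simp only [s, if_neg h1, if_pos h2]
        rw [this]
        obtain ⟨hSc, hS1, -, hSv⟩ := hvalX χ h2
        have h3 := SmallSimple.TheoremBCor.sum_exc_off (f := fun x : (P : Subgroup G) => part θ (χ : G → ℂ) x)
          (d := (d : ℂ)) hS1 hSv
        rw [hSc, ← Finset.add_sum_erase _ _ (Finset.mem_univ (1 : (P : Subgroup G)))] at h3
        have h4 : (e : ℂ) * ∑ x ∈ R, part θ (χ : G → ℂ) x = -(d : ℂ) * e := by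
          rw [← hR χ]
          linear_combination h3
        push_cast
        apply mul_left_cancel₀ he0
        rw [h4]
        ring
      · have : s χ = 0 := by simp only [s, if_neg h1, if_neg h2]
        rw [this]
        have h3 : χ ∉ Over P θ := fun h => by rcases (hB χ).1 h with h | h <;> contradiction
        have h5 : ∀ x ∈ R, part θ (χ : G → ℂ) x = 0 := fun x hx => part_eq_zero h3 fun e => hR1 (e ▸ hx)
        rw [Finset.sum_eq_zero h5]
        simp
  · intro χ h
    have h1 : χ ∉ NE := fun h1 => h ((hB χ).2 (Or.inl h1))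
    have h2 : χ ∉ X := fun h1 => h ((hB χ).2 (Or.inr h1))
    simp only [s, if_neg h1, if_neg h2]
  · intro χ h1
    have : s χ = t * ε χ := if_pos h1
    rw [this]
    rcases hε χ h1 with h | h <;> rw [h] <;> simp
  · intro χ h2
    have h1 : χ ∉ NE := fun h1 => (Finset.disjoint_left.1 hdis h1) h2
    have : s χ = -d := by simp only [s, if_neg h1, if_pos h2]
    rw [this]
    rcases hd with h | h <;> rw [h] <;> simp

end Cfsg.Agent.H34.TI
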